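import Cfsg.Agent.H544.LQ.Defs

/-!
# Latin automorphisms of solvable two-transitive groups (S4114, [R1]; helper793)

* `lat_iff_surj` : `Lat x` iff every element is `c (g⁻¹ x(g))` with `x c = c`; `lat_of_surj` : quotients; `lat_of_inj` : invariant subgroups;
* `exists_fixed` : `M` solvable, two-transitive on `Ω`, `3 ≤ |Ω|`, `y : MulAut M`, `Lat y`, `π (m ω) = y(m) π(ω)` : `π` has a fixed point.
-/

set_option autoImplicit false

namespace Cfsg.Agent.H793.LQ

open Subgroup Cfsg.Agent.H544.LQ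
open scoped commutatorElement

section lat

variable {G : Type*} [Group G]

/-- the fixed points -/
def fixP (x : MulAut G) : Subgroup G where
  carrier := {c | x c = c}
  mul_mem' := fun {a b} ha hb => by
    show x (a * b) = a * b
    rw [map_mul, show x a = a from ha, show x b = b from hb]
  one_mem' := map_one x
  inv_mem' := fun {a} ha => by
    show x a⁻¹ = a⁻¹
    rw [map_inv, show x a = a from ha]

theorem mem_fixP {x : MulAut G} {c : G} : c ∈ fixP x ↔ x c = c := Iff.rfl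

/-- `(c, g C) ↦ c g x(g)⁻¹` -/
noncomputable def phi (x : MulAut G) : fixP x × (G ⧸ fixP x) → G := fun u => u.1 * (u.2.out * (x u.2.out)⁻¹)

theorem phi_bij_iff [Finite G] (x : MulAut G) :
    (Function.Injective (phi x) → Function.Bijective (phi x)) ∧ (Function.Surjective (phi x) → Function.Bijective (phi x)) := by
  have hc : Nat.card (fixP x × (G ⧸ fixP x)) = Nat.card G := by
    rw [Nat.card_prod, mul_comm]
    exact (card_eq_card_quotient_mul_card_subgroup (fixP x)).symm
  exact ⟨fun h => (Nat.bijective_iff_injective_and_card _).2 ⟨h, hc⟩,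
    fun h => (Nat.bijective_iff_surjective_and_card _).2 ⟨h, hc⟩⟩

theorem out_eq {x : MulAut G} {u v : G ⧸ fixP x} (h : u.out * (x u.out)⁻¹ = v.out * (x v.out)⁻¹) : u = v := by
  rw [← QuotientGroup.out_eq' u, ← QuotientGroup.out_eq' v, QuotientGroup.eq]
  show x (u.out⁻¹ * v.out) = u.out⁻¹ * v.out
  rw [map_mul, map_inv]
  have h1 : (x u.out)⁻¹ = u.out⁻¹ * (v.out * (x v.out)⁻¹) := by rw [← h]; group
  rw [h1]
  group

theorem lat_surj [Finite G] {x : MulAut G} (h : Lat x) (m : G) : ∃ c g, x c = c ∧ m = c * (g⁻¹ * x g) := by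
  have hinj : Function.Injective (phi x) := by
    rintro ⟨c, u⟩ ⟨c', v⟩ e
    have e1 : (c : G) * (u.out * (x u.out)⁻¹) = c' * (v.out * (x v.out)⁻¹) := e
    have e2 : (c' : G)⁻¹ * c = 1 := by
      apply h _ u.out⁻¹ v.out⁻¹
      · rw [map_mul, map_inv, mem_fixP.1 c.2, mem_fixP.1 c'.2]
      · rw [inv_inv, inv_inv, map_inv, map_inv, mul_assoc, e1, inv_mul_cancel_left]
    have e3 : c = c' := Subtype.ext (inv_mul_eq_one.1 e2).symm
    subst e3
    exact Prod.ext rfl (out_eq (mul_left_cancel e1))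
  obtain ⟨⟨c, u⟩, e⟩ := ((phi_bij_iff x).1 hinj).2 m
  refine ⟨c, u.out⁻¹, c.2, ?_⟩
  rw [inv_inv, map_inv]
  exact e.symm

theorem lat_of_forall [Finite G] {x : MulAut G} (h : ∀ m : G, ∃ c g, x c = c ∧ m = c * (g⁻¹ * x g)) : Lat x := by
  have key : ∀ g : G, g⁻¹ * x g = (QuotientGroup.mk g⁻¹ : G ⧸ fixP x).out * (x (QuotientGroup.mk g⁻¹ : G ⧸ fixP x).out)⁻¹ := by
    intro g
    obtain ⟨k, hk⟩ := QuotientGroup.mk_out_eq_mul (fixP x) g⁻¹
    rw [hk, map_mul, mem_fixP.1 k.2, map_inv]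
    group
  have hs : Function.Surjective (phi x) := by
    intro m
    obtain ⟨c, g, hc, e⟩ := h m
    refine ⟨(⟨c, hc⟩, (g⁻¹ : G)), ?_⟩
    show c * _ = m
    rw [e, ← key]
  intro c g k hc e
  have e1 : phi x (⟨c, hc⟩, ((g⁻¹ : G) : G ⧸ fixP x)) = phi x (1, ((k⁻¹ : G) : G ⧸ fixP x)) := by
    show c * _ = 1 * _
    rw [← key, ← key, one_mul, e]
  have e2 := ((phi_bij_iff x).2 hs).1 e1
  exact congrArg (fun u => (u.1 : G)) e2

theorem lat_iff_surj [Finite G] {x : MulAut G} : Lat x ↔ ∀ m : G, ∃ c g, x c = c ∧ m = c * (g⁻¹ * x g) :=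
  ⟨lat_surj, lat_of_forall⟩

/-- quotients -/
theorem lat_of_surj [Finite G] {H : Type*} [Group H] (f : G →* H) (hf : Function.Surjective f) {x : MulAut G} {y : MulAut H}
    (hxy : ∀ g, f (x g) = y (f g)) (h : Lat x) : Lat y := by
  have : Finite H := Finite.of_surjective f hf
  apply lat_of_forall
  intro m
  obtain ⟨m, rfl⟩ := hf m
  obtain ⟨c, g, hc, e⟩ := lat_surj h m
  refine ⟨f c, f g, by rw [← hxy, hc], ?_⟩
  rw [← hxy, ← map_inv, ← map_mul, ← map_mul, e]

/-- subgroups -/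
theorem lat_of_inj {H : Type*} [Group H] (f : H →* G) (hf : Function.Injective f) {x : MulAut G} {y : MulAut H}
    (hxy : ∀ g, f (y g) = x (f g)) (h : Lat x) : Lat y := by
  intro c g k hc e
  apply hf
  rw [map_one]
  apply h (f c) (f g) (f k)
  · rw [← hxy, hc]
  · rw [← hxy, ← hxy, ← map_inv, ← map_inv, ← map_mul, ← map_mul, ← map_mul, e]

end lat

section rone

open MulAction

variable {M : Type*} [Group M] {Ω : Type*} [MulAction M Ω]

/-- an abelian characteristic subgroup -/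
theorem exists_char [Finite M] (hs : Group.IsSolvable M) (hn : Nontrivial M) :
    ∃ A : Subgroup M, A.Characteristic ∧ A ≠ ⊥ ∧ ∀ a ∈ A, ∀ b ∈ A, a * b = b * a := by
  classical
  have h := hs.solvable
  have h1 := Nat.find_spec h
  cases hk : Nat.find h with
  | zero =>
    rw [hk, derivedSeries_zero] at h1
    exact absurd h1 (top_ne_bot)
  | succ k =>
    rw [hk, derivedSeries_succ] at h1
    refine ⟨derivedSeries M k, inferInstance, ?_, ?_⟩
    · intro h2
      have := Nat.find_min' h h2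
      omega
    · intro a ha b hb
      have h3 : ⁅a, b⁆ ∈ (⊥ : Subgroup M) := by
        rw [← h1]
        exact commutator_mem_commutator ha hb
      rw [mem_bot, commutatorElement_eq_one_iff_mul_comm] at h3
      exact h3

/-- the faithful case -/
theorem exists_fixed_faithful [Finite M] (hs : Group.IsSolvable M) [FaithfulSMul M Ω] (h2 : IsMultiplyPretransitive M Ω 2)
    (h3 : 3 ≤ Nat.card Ω) (y : MulAut M) (hy : Lat y) (π : Equiv.Perm Ω) (hπ : ∀ (m : M) (ω : Ω), π (m • ω) = y m • π ω) :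
    ∃ ω, π ω = ω := by
  rw [is_two_pretransitive_iff] at h2
  have hfin : Finite Ω := Nat.finite_of_card_ne_zero (by omega)
  have hne2 : ∃ a b : Ω, a ≠ b := by
    have : Nontrivial Ω := Finite.one_lt_card_iff_nontrivial.1 (by omega)
    exact exists_pair_ne Ω
  obtain ⟨α, β, hαβ⟩ := hne2
  have hM : Nontrivial M := by
    obtain ⟨g, hg, -⟩ := h2 hαβ hαβ.symm
    refine ⟨g, 1, ?_⟩
    rintro rfl
    rw [one_smul] at hg
    exact hαβ hg
  obtain ⟨A, hAc, hA, hcomm⟩ := exists_char hs hM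
  have hAn : A.Normal := inferInstance
  -- transitive
  have htr : ∀ a b : Ω, ∃ v ∈ A, v • a = b := by
    intro a b
    by_cases hab : a = b
    · exact ⟨1, A.one_mem, by rw [one_smul, hab]⟩
    obtain ⟨⟨u, hu⟩, hu1'⟩ := Subgroup.ne_bot_iff_exists_ne_one.1 hA
    have hu1 : u ≠ 1 := fun h => hu1' (Subtype.ext h)
    obtain ⟨ω, hω⟩ : ∃ ω : Ω, u • ω ≠ ω := by
      by_contra h
      push Not at h
      apply hu1
      apply eq_of_smul_eq_smul (α := Ω)
      intro a
      rw [h, one_smul]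
    obtain ⟨g, hg1, hg2⟩ := h2 hω.symm hab
    refine ⟨g * u * g⁻¹, hAn.conj_mem u hu g, ?_⟩
    rw [← hg2, ← hg1, mul_smul, inv_smul_smul, mul_smul]
  -- regular
  have hreg : ∀ {u v : M} {a : Ω}, u ∈ A → v ∈ A → u • a = v • a → u = v := by
    intro u v a hu hv h
    apply eq_of_smul_eq_smul (α := Ω)
    intro b
    obtain ⟨w, hw, rfl⟩ := htr a b
    rw [← mul_smul, ← mul_smul, hcomm u hu w hw, hcomm v hv w hw, mul_smul, mul_smul, h]
  -- conjugation is transitive
  have hconj : ∀ {u v : M}, u ∈ A → v ∈ A → u ≠ 1 → v ≠ 1 → ∃ g : M, g * u * g⁻¹ = v := by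
    intro u v hu hv hu1 hv1
    have e1 : α ≠ u • α := fun h => hu1 (hreg hu A.one_mem (by rw [← h, one_smul]))
    have e2 : α ≠ v • α := fun h => hv1 (hreg hv A.one_mem (by rw [← h, one_smul]))
    obtain ⟨g, hg1, hg2⟩ := h2 e1 e2
    refine ⟨g, hreg (hAn.conj_mem u hu g) hv (a := α) ?_⟩
    rw [← hg2]
    nth_rewrite 1 [← hg1]
    rw [mul_smul, inv_smul_smul, mul_smul]
  have hyA : ∀ a ∈ A, y a ∈ A := by
    intro a ha
    have h4 : A.map y.toMonoidHom = A := Subgroup.characteristic_iff_map_eq.1 hAc y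
    rw [← h4]
    exact ⟨a, ha, rfl⟩
  -- the automorphism of `A`
  let yA : MulAut A := MulEquiv.ofBijective
    ((y.toMonoidHom.comp A.subtype).codRestrict A (fun a => hyA a a.2)) (by
      have hinj : Function.Injective ((y.toMonoidHom.comp A.subtype).codRestrict A (fun a => hyA a a.2)) := by
        intro a b h
        exact Subtype.ext (y.injective (congrArg Subtype.val h))
      exact ⟨hinj, Finite.injective_iff_surjective.1 hinj⟩)
  have hyA' : ∀ a : A, (yA a : M) = y a := fun a => rfl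
  have hlatA : Lat yA := lat_of_inj A.subtype A.subtype_injective hyA' hy
  -- move the base point
  obtain ⟨v1, hv1, e1⟩ := htr α (π α)
  obtain ⟨c, g, hc, e2⟩ := lat_surj hlatA ⟨v1, hv1⟩
  have hcy : y c = c := congrArg Subtype.val hc
  have e3 : v1 = c * ((g : M)⁻¹ * y g) := congrArg Subtype.val e2
  have e4 : π ((g : M)⁻¹ • α) = (c : M) • ((g : M)⁻¹ • α) := by
    rw [hπ, ← e1, map_inv, ← mul_smul, ← mul_smul]
    congr 1
    have h5 := hcomm _ (hyA g g.2) _ (A.mul_mem c.2 (A.inv_mem g.2))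
    rw [e3]
    calc (y g)⁻¹ * (c * ((g : M)⁻¹ * y g)) = (y g)⁻¹ * (c * (g : M)⁻¹ * y g) := by rw [mul_assoc (c : M)]
      _ = c * (g : M)⁻¹ := by rw [← h5, inv_mul_cancel_left]
  set ω := (g : M)⁻¹ • α with hω
  by_cases hc1 : (c : M) = 1
  · exact ⟨ω, by rw [e4, hc1, one_smul]⟩
  exfalso
  -- `y` is trivial on `A`
  have hyA1 : ∀ w ∈ A, y w = w := by
    intro w hw
    by_contra hne
    obtain ⟨k, hk⟩ := hconj (u := w⁻¹ * y w) (v := c) (A.mul_mem (A.inv_mem hw) (hyA w hw)) c.2 (by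
      intro h
      exact hne (inv_mul_eq_one.1 h).symm) hc1
    apply hc1
    apply hy c k⁻¹ (w * k⁻¹) hcy
    rw [map_mul, map_inv, ← hk]
    group
  -- `π` is `c`
  have hπc : ∀ a : Ω, π a = (c : M) • a := by
    intro a
    obtain ⟨w, hw, rfl⟩ := htr ω a
    rw [hπ, e4, hyA1 w hw, ← mul_smul, hcomm w hw c c.2, mul_smul]
  have hyc : ∀ m, y m * c = c * m := by
    intro m
    apply eq_of_smul_eq_smul (α := Ω)
    intro a
    rw [mul_smul, ← hπc, ← hπ, hπc, mul_smul]
  have hcz : ∀ m : M, m * c * m⁻¹ = c := by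
    intro m
    have h5 : m * c * m⁻¹ * (c : M)⁻¹ = 1 := by
      apply hy _ 1 m⁻¹
      · exact hyA1 _ (A.mul_mem (hAn.conj_mem c c.2 m) (A.inv_mem c.2))
      · have h6 : y m⁻¹ = c * m⁻¹ * (c : M)⁻¹ := by rw [← hyc, mul_inv_cancel_right]
        rw [h6, inv_one, map_one, inv_inv]
        group
    exact mul_inv_eq_one.1 h5
  have hA2 : ∀ v ∈ A, v ≠ 1 → v = c := by
    intro v hv hv1
    obtain ⟨k, hk⟩ := hconj (u := c) (v := v) c.2 hv hc1 hv1
    rw [← hk, hcz]
  -- `|Ω| ≤ 2`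
  have hcard : Nat.card Ω ≤ 2 := by
    have hsub : (Set.univ : Set Ω) ⊆ {ω, (c : M) • ω} := by
      intro a _
      obtain ⟨w, hw, rfl⟩ := htr ω a
      by_cases hw1 : w = 1
      · left; rw [hw1, one_smul]
      · right; rw [Set.mem_singleton_iff, hA2 w hw hw1]
    rw [← Set.ncard_univ]
    exact (Set.ncard_le_ncard hsub (Set.toFinite _)).trans (Set.ncard_insert_le _ _ |>.trans (by rw [Set.ncard_singleton]))
  omega

/-- **A Latin automorphism of a solvable two-transitive group has a fixed point.** -/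
theorem exists_fixed [Finite M] (hs : Group.IsSolvable M) (h2 : IsMultiplyPretransitive M Ω 2)
    (h3 : 3 ≤ Nat.card Ω) (y : MulAut M) (hy : Lat y) (π : Equiv.Perm Ω) (hπ : ∀ (m : M) (ω : Ω), π (m • ω) = y m • π ω) :
    ∃ ω, π ω = ω := by
  let f := MulAction.toPermHom M Ω
  let H : Subgroup (Equiv.Perm Ω) := f.range
  let r : M →* H := f.rangeRestrict
  have hr : Function.Surjective r := f.rangeRestrict_surjective
  have hfH : Finite H := Finite.of_surjective r hr
  have hr' : ∀ (m : M) (ω : Ω), r m • ω = m • ω := fun m ω => rfl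
  have key : ∀ m : M, π * f m * π⁻¹ = f (y m) := by
    intro m
    ext ω
    show π (m • π⁻¹ ω) = y m • ω
    rw [hπ]
    congr 1
    exact π.apply_symm_apply ω
  have hmem : ∀ a : H, π * a * π⁻¹ ∈ H := by
    rintro ⟨_, m, rfl⟩
    exact ⟨y m, (key m).symm⟩
  have hinj : Function.Injective (((MulAut.conj π).toMonoidHom.comp H.subtype).codRestrict H hmem) := by
    intro a b h
    exact Subtype.ext ((MulAut.conj π).injective (congrArg Subtype.val h))
  let z : MulAut H := MulEquiv.ofBijective _ ⟨hinj, Finite.injective_iff_surjective.1 hinj⟩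
  have hz : ∀ m, r (y m) = z (r m) := fun m => Subtype.ext (key m).symm
  have : FaithfulSMul H Ω := ⟨fun {a b} h => Subtype.ext (Equiv.ext h)⟩
  apply exists_fixed_faithful (M := H) (Group.isSolvable_of_surjective hr) ?_ h3 z (lat_of_surj r hr hz hy) π
  · intro m ω
    obtain ⟨m, rfl⟩ := hr m
    rw [← hz, hr', hr', hπ]
  · rw [is_two_pretransitive_iff] at h2 ⊢
    intro a b c d h h'
    obtain ⟨g, h4, h5⟩ := h2 h h'
    exact ⟨r g, h4, h5⟩

end rone

end Cfsg.Agent.H793.LQ
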